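import Mathlib
import Cfsg.Agent.Lib.KB.E9L

/-!
# Seven orthogonal columns of norm 16 on at least eight rows have odd entries
-/

set_option autoImplicit false
set_option linter.unusedSectionVars false

namespace CfsgLib.H16

open CfsgLib.Tame CfsgLib.KB

variable {ι : Type*} [DecidableEq ι]

theorem e9b_row {O : Finset ι} {σ u : ι → ℤ} (hσ : ∀ a ∈ O, σ a = 1 ∨ σ a = -1)
    (h : ∑ a ∈ O, (2 * u a - σ a) * u a = 1) :
    ∃ a ∈ O, u a = σ a ∧ ∀ g : ι → ℤ, ∑ b ∈ O, g b * u b = g a * u a := by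
  have h0 : ∀ a ∈ O, 0 ≤ (2 * u a - σ a) * u a := fun a ha => by
    rcases hσ a ha with e | e <;> rw [e] <;> rcases le_or_gt (u a) 0 with l | l <;>
      first | nlinarith | (rcases eq_or_lt_of_le l with l' | l' <;> nlinarith)
  have h1 : ∀ a ∈ O, u a ≠ 0 → 1 ≤ (2 * u a - σ a) * u a := fun a ha hu => by
    rcases hσ a ha with e | e <;> rw [e] <;> rcases lt_or_gt_of_ne hu with l | l <;> nlinarith
  obtain ⟨a, ha, hu⟩ : ∃ a ∈ O, u a ≠ 0 := by
    by_contra hn
    push Not at hn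
    rw [Finset.sum_eq_zero fun a ha => by rw [hn a ha, mul_zero]] at h
    omega
  rw [← Finset.add_sum_erase O _ ha] at h
  have h2 := Finset.sum_nonneg fun b (hb : b ∈ O.erase a) => h0 b (Finset.mem_of_mem_erase hb)
  have h3 := h1 a ha hu
  have h4 : ∑ b ∈ O.erase a, (2 * u b - σ b) * u b = 0 := by omega
  have h5 : (2 * u a - σ a) * u a = 1 := by omega
  rw [Finset.sum_eq_zero_iff_of_nonneg fun b hb => h0 b (Finset.mem_of_mem_erase hb)] at h4
  refine ⟨a, ha, ?_, fun g => Finset.sum_eq_single_of_mem a ha fun b hb hba => ?_⟩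
  · rcases Int.eq_one_or_neg_one_of_mul_eq_one' h5 with ⟨e1, e2⟩ | ⟨e1, e2⟩ <;> omega
  · by_cases h6 : u b = 0
    · rw [h6, mul_zero]
    · have := h1 b hb h6
      have := h4 b (Finset.mem_erase.2 ⟨hba, hb⟩)
      omega

/-- The residue `±1` of an odd integer modulo `4`. -/
def e9b_sg (n : ℤ) : ℤ := if n % 4 = 1 then 1 else -1

theorem e9b_sg_cases (n : ℤ) : e9b_sg n = 1 ∨ e9b_sg n = -1 := by
  unfold e9b_sg
  split_ifs <;> simp

theorem e9b_sg_dvd {n : ℤ} (h : Odd n) : (4 : ℤ) ∣ e9b_sg n - n := by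
  obtain ⟨k, rfl⟩ := h
  unfold e9b_sg
  split_ifs <;> omega

theorem e9b_prod {A B C D : ℤ} (hA : Odd A) (hB : Odd B) (hC : Odd C) (hD : Odd D)
    (h : (4 : ℤ) ∣ A + B + C + D) : (4 : ℤ) ∣ A * B * C * D - 1 := by
  obtain ⟨a, rfl⟩ := hA
  obtain ⟨b, rfl⟩ := hB
  obtain ⟨c, rfl⟩ := hC
  obtain ⟨e, rfl⟩ := hD
  obtain ⟨k, hk⟩ := h
  refine ⟨k - 1 + (a * b + a * c + a * e + b * c + b * e + c * e) +
    2 * (a * b * c + a * b * e + a * c * e + b * c * e) + 4 * (a * b * c * e), ?_⟩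
  linear_combination hk

theorem e9b_key {O : Finset ι} {d p q r : ι → ℤ} (hd : ∀ a ∈ O, d a * d a = 1)
    (hp : ∀ a ∈ O, p a * p a = 1) (hq : ∀ a ∈ O, Odd (q a)) (hr : ∀ a ∈ O, Odd (r a))
    (h8 : O.card = 8) (qq : ip O q q = 16) (rr : ip O r r = 16) (dq : ip O d q = 0)
    (dr : ip O d r = 0) (pq : ip O p q = 0) (pr : ip O p r = 0) (qr : ip O q r = 0)
    (c : ∀ a ∈ O, ∀ b ∈ O, (4 : ℤ) ∣ d a * d b + p a * p b + q a * q b + r a * r b) :
    ip O d p = 8 ∨ ip O d p = -8 := by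
  have od : ∀ n : ℤ, n * n = 1 → Odd n := fun n h => by
    rcases Int.eq_one_or_neg_one_of_mul_eq_one h with e | e <;> rw [e] <;> decide
  obtain ⟨z, hz⟩ : O.Nonempty := Finset.card_pos.1 (by omega)
  set ε := e9b_sg (d z * p z * q z * r z) with hε
  have e1 : ε * ε = 1 := by rcases e9b_sg_cases (d z * p z * q z * r z) with e | e <;> rw [hε, e] <;> rfl
  have hu : ∀ a ∈ O, ∃ u, d a * q a = e9b_sg (d a * q a) - 4 * u := fun a ha => by
    obtain ⟨k, hk⟩ := e9b_sg_dvd ((od _ (hd a ha)).mul (hq a ha))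
    exact ⟨k, by linear_combination -hk⟩
  have hv : ∀ a ∈ O, ∃ v, ε * (p a * r a) = e9b_sg (d a * q a) - 4 * v := fun a ha => by
    obtain ⟨k, hk⟩ := e9b_sg_dvd ((od _ (hd a ha)).mul (hq a ha))
    obtain ⟨l, hl⟩ := e9b_sg_dvd ((((od _ (hd z hz)).mul (od _ (hp z hz))).mul (hq z hz)).mul (hr z hz))
    obtain ⟨m, hm⟩ := e9b_prod ((od _ (hd a ha)).mul (od _ (hd z hz)))
      ((od _ (hp a ha)).mul (od _ (hp z hz))) ((hq a ha).mul (hq z hz)) ((hr a ha).mul (hr z hz))
      (c a ha z hz)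
    obtain ⟨n, hn⟩ := hq a ha
    have hqq : q a * q a = 4 * (n * n + n) + 1 := by rw [hn]; ring
    rw [← hε] at hl
    refine ⟨k - l * (p a * r a) - m * (d a * q a) +
      (n * n + n) * (d z * p z * q z * r z) * (p a * r a), ?_⟩
    linear_combination (p a * r a) * hl - hk + (d a * q a) * hm -
      (d z * p z * q z * r z) * (p a * r a) * (q a * q a) * hd a ha -
      (d z * p z * q z * r z) * (p a * r a) * hqq
  choose! u hu using hu
  choose! v hv using hv
  set σ : ι → ℤ := fun a => e9b_sg (d a * q a) with hσ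
  have hu' : ∀ a ∈ O, d a * q a = σ a - 4 * u a := hu
  have hv' : ∀ a ∈ O, ε * (p a * r a) = σ a - 4 * v a := hv
  have s1 : ∀ a ∈ O, σ a = 1 ∨ σ a = -1 := fun a _ => e9b_sg_cases _
  have s2 : ∀ a ∈ O, σ a * σ a = 1 := fun a ha => by rcases s1 a ha with e | e <;> rw [e] <;> rfl
  have c8 : ∑ _a ∈ O, (1 : ℤ) = 8 := by simp [h8]
  obtain ⟨a, ha, ua, ga⟩ := e9b_row (u := u) s1 (by
    have : ip O q q = ∑ a ∈ O, (1 + 8 * ((2 * u a - σ a) * u a)) :=
      Finset.sum_congr rfl fun a ha => by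
        linear_combination (d a * q a + σ a - 4 * u a) * hu' a ha - (q a * q a) * hd a ha + s2 a ha
    rw [Finset.sum_add_distrib, ← Finset.mul_sum, c8] at this
    omega)
  obtain ⟨b, hb, vb, gb⟩ := e9b_row (u := v) s1 (by
    have : ip O r r = ∑ a ∈ O, (1 + 8 * ((2 * v a - σ a) * v a)) :=
      Finset.sum_congr rfl fun a ha => by
        linear_combination (ε * (p a * r a) + σ a - 4 * v a) * hv' a ha -
          (r a * r a) * hp a ha - (p a * p a * r a * r a) * e1 + s2 a ha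
    rw [Finset.sum_add_distrib, ← Finset.mul_sum, c8] at this
    omega)
  have t1 : ∀ a ∈ O, d a * p a = 1 ∨ d a * p a = -1 := fun a ha =>
    Int.eq_one_or_neg_one_of_mul_eq_one (v := d a * p a) (by
      linear_combination (p a * p a) * hd a ha + hp a ha)
  have E1 : ip O d q = ∑ a ∈ O, σ a - 4 * ∑ a ∈ O, 1 * u a := by
    rw [Finset.mul_sum, ← Finset.sum_sub_distrib]
    exact Finset.sum_congr rfl fun a ha => by linear_combination hu' a ha
  have E2 : ε * ip O p r = ∑ a ∈ O, σ a - 4 * ∑ a ∈ O, 1 * v a := by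
    rw [ip, Finset.mul_sum, Finset.mul_sum, ← Finset.sum_sub_distrib]
    exact Finset.sum_congr rfl fun a ha => by linear_combination hv' a ha
  have E3 : ip O p q = ∑ a ∈ O, d a * p a * σ a - 4 * ∑ a ∈ O, d a * p a * u a := by
    rw [Finset.mul_sum, ← Finset.sum_sub_distrib]
    exact Finset.sum_congr rfl fun a ha => by
      linear_combination (d a * p a) * hu' a ha - (p a * q a) * hd a ha
  have E4 : ε * ip O d r = ∑ a ∈ O, d a * p a * σ a - 4 * ∑ a ∈ O, d a * p a * v a := by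
    rw [ip, Finset.mul_sum, Finset.mul_sum, ← Finset.sum_sub_distrib]
    exact Finset.sum_congr rfl fun a ha => by
      linear_combination (d a * p a) * hv' a ha - (ε * d a * r a) * hp a ha
  have E5 : ε * ip O q r = ip O d p - 4 * ∑ a ∈ O, d a * p a * σ a * u a -
      4 * ∑ a ∈ O, d a * p a * σ a * v a + 16 * ∑ a ∈ O, d a * p a * v a * u a := by
    rw [ip, ip, Finset.mul_sum, Finset.mul_sum, Finset.mul_sum, Finset.mul_sum,
      ← Finset.sum_sub_distrib, ← Finset.sum_sub_distrib, ← Finset.sum_add_distrib]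
    exact Finset.sum_congr rfl fun a ha => by
      linear_combination (d a * p a) * (d a * q a) * hv' a ha +
        (d a * p a) * (σ a - 4 * v a) * hu' a ha + (d a * p a) * s2 a ha -
        (ε * q a * r a * p a * p a) * hd a ha - (ε * q a * r a) * hp a ha
  have l1 : ip O d p ≤ 8 := c8 ▸ Finset.sum_le_sum fun a ha => by rcases t1 a ha with e | e <;> omega
  have l2 : -8 ≤ ip O d p := by
    have : ∑ _a ∈ O, (-1 : ℤ) ≤ ip O d p :=
      Finset.sum_le_sum fun a ha => by rcases t1 a ha with e | e <;> omega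
    simpa [h8] using this
  rw [ga, dq] at E1
  rw [gb, pr] at E2
  rw [ga, pq] at E3
  rw [gb, dr] at E4
  rw [ga, ga, gb, qr] at E5
  rw [ua] at E1 E3 E5
  rw [vb] at E2 E4 E5
  generalize ∑ a ∈ O, σ a = X at E1 E2
  generalize ∑ a ∈ O, d a * p a * σ a = Y at E3 E4
  rcases t1 a ha with e2 | e2 <;> rcases t1 b hb with e3 | e3 <;> rcases s1 a ha with e4 | e4 <;>
    rcases s1 b hb with e5 | e5 <;> rw [e4] at E1 E3 E5 <;> rw [e5] at E2 E4 <;>
    rw [e2] at E3 E5 <;> rw [e3] at E4 <;> simp only [e3, e5] at E5 <;> omega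

theorem e9b_eq_one {O : Finset ι} {c : ι → ℤ} (ho : ∀ a ∈ O, Odd (c a))
    (h : ip O c c = O.card) : ∀ a ∈ O, c a * c a = 1 := by
  have h1 : ∀ a ∈ O, 0 ≤ c a * c a - 1 := fun a ha => by
    have := one_le_sq (a := c a) fun e => by simpa [e] using ho a ha
    omega
  have h2 : ∑ a ∈ O, (c a * c a - 1) = 0 := by
    rw [Finset.sum_sub_distrib, ← ip, h]
    simp
  intro a ha
  have := (Finset.sum_eq_zero_iff_of_nonneg h1).1 h2 a ha
  omega

theorem e9b_zero {E : Finset ι} {c : ι → ℤ} (h : ip E c c = 0) : ∀ a ∈ E, c a = 0 := fun a ha =>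
  mul_self_eq_zero.1
    ((Finset.sum_eq_zero_iff_of_nonneg fun b _ => mul_self_nonneg (c b)).1 h a ha)

theorem e9b_par1 {O E : Finset ι} {d p q r : ι → ℤ} (h8 : O.card = 8)
    (hd : ∀ a ∈ O, d a * d a = 1) (dE : ip E d d = 8)
    (hp : ∀ a ∈ O, Odd (p a)) (hq : ∀ a ∈ O, Odd (q a)) (hr : ∀ a ∈ O, Odd (r a))
    (pE : ip E p p = 8) (qE : ip E q q = 0) (rE : ip E r r = 0)
    (pp : ip O p p + ip E p p = 16) (qq : ip O q q + ip E q q = 16)
    (rr : ip O r r + ip E r r = 16) (dp : ip O d p + ip E d p = 0)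
    (dq : ip O d q + ip E d q = 0) (dr : ip O d r + ip E d r = 0)
    (pq : ip O p q + ip E p q = 0) (pr : ip O p r + ip E p r = 0)
    (qr : ip O q r + ip E q r = 0)
    (c : ∀ a ∈ O, ∀ b ∈ O, (4 : ℤ) ∣ d a * d b + p a * p b + q a * q b + r a * r b) :
    ∃ κ : ℤ, κ * κ = 1 ∧ (∀ a ∈ O, p a = κ * d a) ∧ ∀ a ∈ E, p a = -κ * d a := by
  have zq : ∀ f : ι → ℤ, ip E f q = 0 := fun f =>
    Finset.sum_eq_zero fun a ha => by rw [e9b_zero qE a ha, mul_zero]
  have zr : ∀ f : ι → ℤ, ip E f r = 0 := fun f =>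
    Finset.sum_eq_zero fun a ha => by rw [e9b_zero rE a ha, mul_zero]
  rw [zq] at dq pq
  rw [zr] at dr pr qr
  have dO : ip O d d = 8 := by
    rw [ip, Finset.sum_congr rfl hd]
    simp [h8]
  have p8 : ip O p p = 8 := by omega
  have key := e9b_key hd (e9b_eq_one hp (by rw [p8, h8]; rfl)) hq hr h8 (by omega) (by omega)
    (by omega) (by omega) (by omega) (by omega) (by omega) c
  have sq : ∀ (F : Finset ι) (k : ℤ), ip F (fun a => p a - k * d a) (fun a => p a - k * d a) =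
      ip F p p - 2 * k * ip F d p + k * k * ip F d d := fun F k => by
    rw [ip, ip, ip, ip, Finset.mul_sum, Finset.mul_sum, ← Finset.sum_sub_distrib,
      ← Finset.sum_add_distrib]
    exact Finset.sum_congr rfl fun a _ => by ring
  rcases key with k | k
  · refine ⟨1, rfl, fun a ha => ?_, fun a ha => ?_⟩
    · have := e9b_zero (E := O) ((sq O 1).trans (by omega)) a ha
      omega
    · have := e9b_zero (E := E) ((sq E (-1)).trans (by omega)) a ha
      omega
  · refine ⟨-1, rfl, fun a ha => ?_, fun a ha => ?_⟩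
    · have := e9b_zero (E := O) ((sq O (-1)).trans (by omega)) a ha
      omega
    · have := e9b_zero (E := E) ((sq E 1).trans (by omega)) a ha
      omega

theorem e9b_par {O E : Finset ι} {d : ι → ℤ} {z : Fin 3 → ι → ℤ} (h8 : O.card = 8)
    (hd : ∀ a ∈ O, d a * d a = 1) (dE : ip E d d = 8) (hz : ∀ i, ∀ a ∈ O, Odd (z i a))
    (sE : ip E (z 0) (z 0) + ip E (z 1) (z 1) + ip E (z 2) (z 2) = 8)
    (zz : ∀ i j, ip O (z i) (z j) + ip E (z i) (z j) = if i = j then 16 else 0)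
    (dz : ∀ i, ip O d (z i) + ip E d (z i) = 0)
    (c : ∀ a ∈ O, ∀ b ∈ O, (4 : ℤ) ∣ d a * d b + ∑ i, z i a * z i b) :
    ∃ (i : Fin 3) (κ : ℤ), κ * κ = 1 ∧ (∀ a ∈ O, z i a = κ * d a) ∧ ∀ a ∈ E, z i a = -κ * d a := by
  have h1 : ∀ i, ip E (z i) (z i) = 0 ∨ ip E (z i) (z i) = 8 := fun i => by
    have a1 := e9_mod (hz i)
    have a2 := e9_le (S := O) (c := z i) (n := 1) fun b hb =>
      one_le_sq fun e => by simpa [e] using hz i b hb
    have a3 := e9_le (S := E) (c := z i) (n := 0) fun b _ => mul_self_nonneg _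
    have a4 := zz i i
    rw [if_pos rfl] at a4
    rw [h8] at a1 a2
    omega
  simp only [Fin.sum_univ_three] at c
  rcases h1 0 with e0 | e0 <;> rcases h1 1 with e1 | e1 <;> rcases h1 2 with e2 | e2 <;>
    try omega
  · exact ⟨2, e9b_par1 h8 hd dE (hz 2) (hz 0) (hz 1) e2 e0 e1 (by simpa using zz 2 2)
      (by simpa using zz 0 0) (by simpa using zz 1 1) (dz 2) (dz 0) (dz 1) (by simpa using zz 2 0)
      (by simpa using zz 2 1) (by simpa using zz 0 1) fun a ha b hb => by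
        convert c a ha b hb using 1; ring⟩
  · exact ⟨1, e9b_par1 h8 hd dE (hz 1) (hz 0) (hz 2) e1 e0 e2 (by simpa using zz 1 1)
      (by simpa using zz 0 0) (by simpa using zz 2 2) (dz 1) (dz 0) (dz 2) (by simpa using zz 1 0)
      (by simpa using zz 1 2) (by simpa using zz 0 2) fun a ha b hb => by
        convert c a ha b hb using 1; ring⟩
  · exact ⟨0, e9b_par1 h8 hd dE (hz 0) (hz 1) (hz 2) e0 e1 e2 (by simpa using zz 0 0)
      (by simpa using zz 1 1) (by simpa using zz 2 2) (dz 0) (dz 1) (dz 2) (by simpa using zz 0 1)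
      (by simpa using zz 0 2) (by simpa using zz 1 2) fun a ha b hb => by
        convert c a ha b hb using 1; ring⟩

theorem e9b_half {d0 d1 : ℤ} {s t : Fin 3 → ℤ} (h0 : Odd d0) (h1 : d1 * d1 = 4)
    (hs : ∀ i, Odd (s i)) (ht : ∀ i, ¬ Odd (t i)) (c : (4 : ℤ) ∣ d0 * d1 + ∑ i, s i * t i) :
    ∃ n : ℤ, 0 ≤ n ∧ t 0 * t 0 + t 1 * t 1 + t 2 * t 2 = 8 * n + 4 := by
  choose m hm using fun i => Int.not_odd_iff_even.1 (ht i)
  choose l hl using hs
  obtain ⟨k, hk⟩ := h0
  obtain ⟨w, hw⟩ := c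
  rw [Fin.sum_univ_three, hm, hm, hm, hl, hl, hl, hk] at hw
  have h2 : d1 = 2 ∨ d1 = -2 := by
    have : (d1 - 2) * (d1 + 2) = 0 := by linear_combination h1
    rcases mul_eq_zero.1 this with e | e <;> omega
  have h3 : Odd (m 0 + m 1 + m 2) := by
    rcases h2 with e | e <;> rw [e] at hw
    · exact ⟨w - k - 1 - l 0 * m 0 - l 1 * m 1 - l 2 * m 2, by linarith⟩
    · exact ⟨w + k - l 0 * m 0 - l 1 * m 1 - l 2 * m 2, by linarith⟩
  obtain ⟨n, hn⟩ := h3.mul h3
  refine ⟨n - (m 0 * m 1 + m 0 * m 2 + m 1 * m 2), ?_, ?_⟩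
  · nlinarith [mul_self_nonneg (m 0), mul_self_nonneg (m 1), mul_self_nonneg (m 2)]
  · rw [hm, hm, hm]
    linear_combination 4 * hn

theorem e9b_sev_odd {S : Finset ι} {d : ι → ℤ} {x y : Fin 3 → ι → ℤ} (h : Sev S d x y)
    (h8 : 8 ≤ S.card) : ∀ a ∈ S, Odd (d a) := by
  intro a ha
  by_cases h11 : 11 ≤ S.card
  · exact h.odd h11 a ha
  by_contra hd
  set O := S.filter fun i => Odd (d i) with hO
  set E := S.filter fun i => ¬ Odd (d i) with hE
  have sp : ∀ f g : ι → ℤ, ip S f g = ip O f g + ip E f g := fun f g => ip_split _ f g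
  have mO : ∀ b ∈ O, b ∈ S ∧ Odd (d b) := fun b hb => Finset.mem_filter.1 hb
  have mE : ∀ b ∈ E, b ∈ S ∧ ¬ Odd (d b) := fun b hb => Finset.mem_filter.1 hb
  have h1 := sp d d
  have h2 := e9_le (S := O) (c := d) (n := 1) fun b hb => one_le_sq (h.ne b (mO b hb).1)
  have h3' : ∀ b ∈ E, 4 ≤ d b * d b := fun b hb => four_le_sq (h.ne b (mE b hb).1) (mE b hb).2
  have h3 := e9_le (S := E) (c := d) (n := 4) h3'
  have h4 : O.card + E.card = S.card := Finset.card_filter_add_card_filter_not _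
  have h5 : 0 < E.card := Finset.card_pos.2 ⟨a, Finset.mem_filter.2 ⟨ha, hd⟩⟩
  have h6 := e9_mod (S := O) (c := d) fun b hb => (mO b hb).2
  have h7 : (4 : ℤ) ∣ ip E d d := Finset.dvd_sum fun b hb => by
    obtain ⟨m, hm⟩ := Int.not_odd_iff_even.1 (mE b hb).2
    exact ⟨m * m, by rw [hm]; ring⟩
  rw [h.dd] at h1
  have c8 : O.card = 8 := by omega
  have dE : ip E d d = 8 := by omega
  have d1 := e9b_eq_one (O := O) (c := d) (fun b hb => (mO b hb).2) (by omega)
  have d4 : ∀ b ∈ E, d b * d b = 4 := fun b hb => by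
    have a1 : d b * d b ≤ ip E d d :=
      Finset.single_le_sum (f := fun i => d i * d i) (fun i _ => mul_self_nonneg _) hb
    have a2 := h3' b hb
    obtain ⟨m, hm⟩ := Int.not_odd_iff_even.1 (mE b hb).2
    rw [dE, hm] at a1
    rw [hm] at a2 ⊢
    have : m ≤ 1 := by nlinarith
    have : -1 ≤ m := by nlinarith
    interval_cases m <;> omega
  have c2 : (E.card : ℤ) = 2 := by
    rw [ip, Finset.sum_congr rfl d4] at dE
    simp only [Finset.sum_const, nsmul_eq_mul] at dE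
    omega
  obtain ⟨z, hz⟩ : O.Nonempty := Finset.card_pos.1 (by omega)
  have row : ∀ b ∈ E, x 0 b * x 0 b + x 1 b * x 1 b + x 2 b * x 2 b = 4 ∧
      y 0 b * y 0 b + y 1 b * y 1 b + y 2 b * y 2 b = 4 := fun b hb => by
    obtain ⟨n, n0, hn⟩ := e9b_half (s := fun i => x i z) (t := fun i => x i b) (mO z hz).2 (d4 b hb)
      (fun i => (h.px z (mO z hz).1 i).2 (mO z hz).2)
      (fun i => mt (h.px b (mE b hb).1 i).1 (mE b hb).2) (h.cx z (mO z hz).1 b (mE b hb).1)
    obtain ⟨m, m0, hm⟩ := e9b_half (s := fun i => y i z) (t := fun i => y i b) (mO z hz).2 (d4 b hb)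
      (fun i => (h.py z (mO z hz).1 i).2 (mO z hz).2)
      (fun i => mt (h.py b (mE b hb).1 i).1 (mE b hb).2) (h.cy z (mO z hz).1 b (mE b hb).1)
    have := (bessel (S := S) (Sum.elim x y) (fun _ => 1) (L := 16) (by norm_num) (by simp)
      (by rintro (s | s) <;> simp [h.xx, h.yy])
      (by
        rintro (s | s) (t | t) e
        · simpa [h.xx] using e
        · exact h.xy s t
        · exact (ip_comm _ _).trans (h.xy t s)
        · simpa [h.yy] using e) (mE b hb).1).2 d (h.ne b (mE b hb).1)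
      (by rintro (s | s); exacts [h.dx s, h.dy s])
    simp only [Fintype.sum_sum_type, Fin.sum_univ_three, Sum.elim_inl, Sum.elim_inr,
      one_mul] at this
    omega
  have sum8 : ∀ w : Fin 3 → ι → ℤ, (∀ b ∈ E, w 0 b * w 0 b + w 1 b * w 1 b + w 2 b * w 2 b = 4) →
      ip E (w 0) (w 0) + ip E (w 1) (w 1) + ip E (w 2) (w 2) = 8 := fun w hw => by
    rw [ip, ip, ip, ← Finset.sum_add_distrib, ← Finset.sum_add_distrib, Finset.sum_congr rfl hw]
    simp only [Finset.sum_const, nsmul_eq_mul]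
    omega
  obtain ⟨i, κ, k1, k2, k3⟩ := e9b_par c8 d1 dE (fun i b hb => (h.px b (mO b hb).1 i).2 (mO b hb).2)
    (sum8 x fun b hb => (row b hb).1) (fun i j => by rw [← sp, h.xx]) (fun i => by rw [← sp, h.dx])
    fun a ha b hb => h.cx a (mO a ha).1 b (mO b hb).1
  obtain ⟨j, μ, l1, l2, l3⟩ := e9b_par c8 d1 dE (fun i b hb => (h.py b (mO b hb).1 i).2 (mO b hb).2)
    (sum8 y fun b hb => (row b hb).2) (fun i j => by rw [← sp, h.yy]) (fun i => by rw [← sp, h.dy])
    fun a ha b hb => h.cy a (mO a ha).1 b (mO b hb).1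
  have f1 : ip O (x i) (y j) = κ * μ * ip O d d := by
    rw [ip, ip, Finset.mul_sum]
    exact Finset.sum_congr rfl fun b hb => by rw [k2 b hb, l2 b hb]; ring
  have f2 : ip E (x i) (y j) = κ * μ * ip E d d := by
    rw [ip, ip, Finset.mul_sum]
    exact Finset.sum_congr rfl fun b hb => by rw [k3 b hb, l3 b hb]; ring
  have f3 := sp (x i) (y j)
  rw [h.xy, f1, f2, ← mul_add, ← h1] at f3
  have : κ * μ * (κ * μ) = 1 := by linear_combination (μ * μ) * k1 + l1
  have f4 : κ * μ = 0 := by omega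
  rw [f4] at this
  omega

end CfsgLib.H16
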